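import Cfsg.Agent.H3.DD5
import Cfsg.Agent.H7.GlaubAut

/-! Two commuting quaternion subgroups of a Sylow `2`-subgroup: strong closure. -/

set_option autoImplicit false
set_option linter.unusedSectionVars false
set_option linter.unusedVariables false

namespace Cfsg.Agent.H3.GT

open Subgroup Cfsg.Agent.FT Cfsg.Agent.L0 Cfsg.Agent.H8 Cfsg.Agent.BS Cfsg.Agent.H3.DD
open scoped commutatorElement

universe u

local instance : Fact (Nat.Prime 2) := Nat.fact_prime_two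

structure Sd {G : Type u} [Group G] (S : Sylow 2 G) (A B : Subgroup G) (z x α c j c' : G) : Prop where
  O : pPrimeCore 2 G = ⊥
  iz : Invo z
  zc : ∀ g, g * z = z * g
  le : A ≤ S
  comm : ∀ a ∈ A, ∀ b ∈ B, a * b = b * a
  hα : α ∈ A
  hj : j ∈ A
  nj : j ∉ zpowers α
  cα : c ∈ zpowers α
  cc : c * c = z
  hx : x ∈ (S : Subgroup G)
  nx : ∀ a ∈ A, ∀ b ∈ B, a * b ≠ x
  out : ∀ a ∈ A, a ∉ zpowers α → a * a = z ∧ x * a * x⁻¹ = α * a ∧ IsConj c a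
  nα : ∀ s ∈ (S : Subgroup G), s * α * s⁻¹ ∈ zpowers α
  cent : ∀ s ∈ (S : Subgroup G), (∀ a ∈ A, a * s = s * a) → s ∈ B
  root : ∀ s ∈ (S : Subgroup G), s * s = z → s ∈ A ∨ s ∈ B
  pw : ∃ n : ℕ, (∀ a ∈ A, a ^ n = 1 ∨ a ^ n = z) ∧ ∀ s ∈ (S : Subgroup G),
    (∃ a ∈ A, ∃ b ∈ B, a * b = s) ∨ s * s = 1 ∨ (s ^ n ≠ 1 ∧ s ^ n ≠ z)
  cen1 : ∀ s ∈ (S : Subgroup G), s * c = c * s → ∃ i : ℤ, ∃ b ∈ B, s = x ^ i * b
  cen2 : ∀ s ∈ (S : Subgroup G), s * c ≠ c * s → s * s ∈ B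
  nf : ¬ IsConj c c'
  mv : ∃ g, (g * c' * g⁻¹ = c' ∨ g * c' * g⁻¹ = c' * z) ∧ g * c * g⁻¹ ∈ A ∧ g * c * g⁻¹ ∉ zpowers α

/-- the centralizer of a conjugacy class -/
def CC {G : Type u} [Group G] (c : G) : Subgroup G := centralizer {u | IsConj c u}

variable {G : Type u} [Group G] [Finite G] {S : Sylow 2 G} {A B K N : Subgroup G} {z x α β c j c' j' a b s u v g : G}

theorem mem_CC : g ∈ CC c ↔ ∀ u, IsConj c u → u * g = g * u := Iff.rfl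

instance CC_normal (c : G) : (CC c).Normal := ⟨fun n hn g => mem_CC.2 fun u hu => by
  simpa [mul_assoc] using cj_comm g (mem_CC.1 hn _ (hu.trans (cjc g⁻¹ u)))⟩

theorem pf_of (lA : A ≤ S) (lB : B ≤ S) (hc : ∀ a ∈ A, ∀ b ∈ B, a * b = b * a) (hd : ∀ a ∈ A, a ∈ B → a = 1)
    (sA : ∀ a ∈ A, ∀ s ∈ (S : Subgroup G), IsConj a s → s ∈ A) (sB : ∀ a ∈ B, ∀ s ∈ (S : Subgroup G), IsConj a s → s ∈ B) :
    PF {x | ∃ a ∈ A, IsConj a x} {x | ∃ a ∈ B, IsConj a x} := by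
  have k : ∀ {A : Subgroup G}, A ≤ S → (∀ a ∈ A, ∀ s ∈ (S : Subgroup G), IsConj a s → s ∈ A) → SC {x | ∃ a ∈ A, IsConj a x} :=
    fun lA sA => ⟨⟨1, one_mem _, .refl _⟩, fun x ⟨a, ha, h⟩ g => ⟨a, ha, h.trans (cjc g x)⟩, fun x ⟨a, ha, h⟩ => by
      obtain ⟨k, hk⟩ := two_elt (lA ha)
      exact ⟨k, isConj_one_right.1 (hk ▸ h.pow _)⟩, fun Q hQ x ⟨a, ha, h⟩ h1 y ⟨b, hb, k⟩ h2 => by
      obtain ⟨g, -, h3⟩ := H9.exists_conj_mem_sylow S hQ le_top le_top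
      exact ⟨_, mul_mem (sA a ha _ (h3 x h1) (h.trans (isConj_iff.2 ⟨g⁻¹, by group⟩)))
        (sA b hb _ (h3 y h2) (k.trans (isConj_iff.2 ⟨g⁻¹, by group⟩))), isConj_iff.2 ⟨g, by group⟩⟩⟩
  refine ⟨k lA sA, k lB sB, fun Q hQ x ⟨a, ha, h⟩ h1 y ⟨b, hb, k⟩ h2 => ?_, fun x ⟨a, ha, h⟩ ⟨b, hb, k⟩ =>
    isConj_one_right.1 (hd b (sA a ha b (lB hb) (h.trans k.symm)) hb ▸ k)⟩
  obtain ⟨g, -, h3⟩ := H9.exists_conj_mem_sylow S hQ le_top le_top
  simpa [mul_assoc] using cj_comm g <| hc _ (sA a ha _ (h3 x h1) (h.trans (isConj_iff.2 ⟨g⁻¹, by group⟩))) _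
    (sB b hb _ (h3 y h2) (k.trans (isConj_iff.2 ⟨g⁻¹, by group⟩)))

namespace Sd

variable (h : Sd S A B z x α c j c')
include h

theorem lα : zpowers α ≤ A := zpowers_le.2 h.hα
theorem cA : c ∈ A := h.lα h.cα
theorem zα : z ∈ zpowers α := h.cc ▸ mul_mem h.cα h.cα
theorem zA : z ∈ A := h.lα h.zα
theorem jj : j * j = z := (h.out j h.hj h.nj).1
theorem cj : IsConj c j := (h.out j h.hj h.nj).2.2
theorem cz (g : G) : g * z * g⁻¹ = z := by rw [h.zc, mul_inv_cancel_right]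

theorem cfix (ha : a = 1 ∨ a = z) (hc : IsConj a s) : s = a := by
  obtain ⟨g, rfl⟩ := isConj_iff.1 hc
  rcases ha with rfl | rfl
  exacts [by simp, h.cz g]

theorem csq (hc : IsConj a s) (e : a * a = z) : s * s = z := by
  obtain ⟨g, rfl⟩ := isConj_iff.1 hc
  rw [conj_mul, e, h.cz]

theorem uniq (ha : a ∈ A) (e : a * a = 1) : a = 1 ∨ a = z := (em _).imp_right fun h2 =>
  ZG.invo_eq_of_cyc (by_contra fun h1 => h.iz.2 ((h.out a ha h1).1.symm.trans e)) h.zα ⟨e, h2⟩ h.iz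

theorem mulo (hu : u ∈ zpowers α) (hn : a ∉ zpowers α) : u * a ∉ zpowers α := fun e => hn ((mul_mem_cancel_left hu).1 e)

theorem inv (ha : a ∈ A) (hn : a ∉ zpowers α) (hu : u ∈ zpowers α) : a * u * a⁻¹ = u⁻¹ := by
  have := (h.out _ (mul_mem (h.lα hu) ha) (h.mulo hu hn)).1
  rw [← (h.out a ha hn).1, ← mul_assoc, mul_left_inj, mul_assoc] at this
  rw [mul_inv_eq_iff_eq_mul, eq_inv_mul_iff_mul_eq, this]

theorem invz (e : a * a = z) : a⁻¹ = a * z := by rw [inv_eq_iff_mul_eq_one, ← mul_assoc, e, h.iz.1]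

theorem nz1 (e : a * a = z) : ¬ (a = 1 ∨ a = z) := by
  rintro (rfl | rfl)
  exacts [h.iz.2 (by simpa using e.symm), h.iz.2 (e.symm.trans h.iz.1)]

theorem disj (ha : a ∈ A) (hb : a ∈ B) : a = 1 ∨ a = z := by
  have k : ∀ u ∈ zpowers α, ∀ a ∈ A, a ∉ zpowers α → a * u = u * a → u * u = 1 := fun u hu a ha hn e => by
    have := h.inv ha hn hu
    rwa [e, mul_inv_cancel_right, eq_inv_iff_mul_eq_one] at this
  by_cases h1 : a ∈ zpowers α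
  · exact h.uniq ha (k a h1 j h.hj h.nj (h.comm j h.hj a hb))
  · exact absurd (h.cc.symm.trans (k c h.cα a ha h1 (h.comm c h.cA a hb).symm)) h.iz.2

theorem sqz (hu : u ∈ zpowers α) (e : u * u = z) : u = c ∨ u = c * z :=
  (h.uniq (mul_mem (inv_mem h.cA) (h.lα hu)) (by
    rw [mul_assoc, ← mul_assoc u, ZG.zp_comm hu (inv_mem h.cα), mul_assoc, e, ← h.cc]; group)).imp
    (fun e => (inv_mul_eq_one.1 e).symm) inv_mul_eq_iff_eq_mul.1

theorem allc (ha : a ∈ A) (e : a * a = z) : IsConj c a := by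
  by_cases h1 : a ∈ zpowers α
  · rcases h.sqz h1 e with rfl | rfl
    exacts [.refl _, isConj_iff.2 ⟨j, by rw [h.inv h.hj h.nj h.cα, h.invz h.cc]⟩]
  · exact (h.out a ha h1).2.2

theorem nu (hs : s ∈ (S : Subgroup G)) (hu : u ∈ zpowers α) : s * u * s⁻¹ ∈ zpowers u := by
  obtain ⟨i, rfl⟩ := hu
  obtain ⟨k, hk⟩ := h.nα s hs
  exact ⟨k, by simp only at hk ⊢; rw [← conj_zpow, ← hk, ← zpow_mul, ← zpow_mul, mul_comm]⟩

theorem nc (hs : s ∈ (S : Subgroup G)) : s * c * s⁻¹ = c ∨ s * c * s⁻¹ = c * z :=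
  h.sqz (zpowers_le.2 h.cα (h.nu hs h.cα)) (h.csq (cjc s c) h.cc)

theorem gen (hK : ∀ a ∈ A, IsConj c a → a ∈ K) : A ≤ K := fun a ha => by
  by_cases h1 : a ∈ zpowers α
  · exact (mul_mem_cancel_right (hK j h.hj h.cj)).1 (hK _ (mul_mem ha h.hj) (h.out _ (mul_mem ha h.hj) (h.mulo h1 h.nj)).2.2)
  · exact hK a ha (h.out a ha h1).2.2

theorem zn : (zpowers z).Normal := ⟨fun n hn g => by
  rcases h.iz.mem_zpowers_iff.1 hn with rfl | rfl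
  exacts [by simp, by rw [h.cz]; exact hn]⟩

theorem pi [(zpowers z).Normal] : QuotientGroup.mk' (zpowers z) a = QuotientGroup.mk' (zpowers z) b ↔ b = a ∨ b = a * z := by
  rw [QuotientGroup.mk'_apply, QuotientGroup.mk'_apply, QuotientGroup.eq, h.iz.mem_zpowers_iff, inv_mul_eq_one,
    inv_mul_eq_iff_eq_mul, eq_comm]

theorem Oz [(zpowers z).Normal] : pPrimeCore 2 (G ⧸ zpowers z) = ⊥ :=
  H7.pPrimeCore_quotient_central h.iz.pgroup_zpowers (zpowers_le.2 (mem_center_iff.2 h.zc)) h.O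

theorem oz [N.Normal] (hN : ∀ s ∈ (S : Subgroup G), s ∈ N → s = 1 ∨ s = z) (hu : u ∈ N) : u = 1 ∨ u = z := by
  have := h.zn
  have h1 := le_pPrimeCore' (p := 2) (Normal.map (inferInstance : N.Normal) _ (QuotientGroup.mk'_surjective (zpowers z)))
    (odd_card_of_no_invo (by
      rintro _ ⟨n, hn, rfl⟩ it
      have h2 : n * n = 1 ∨ n * n = z := by simpa using h.pi.1 ((map_one _).trans (it.1.symm.trans (map_mul _ _ _).symm))
      obtain ⟨g, -, h3⟩ := H9.exists_conj_mem_sylow S (H9.isPGroup_zpowers (a := n) ⟨2, by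
        rw [show 2 ^ 2 = 2 * 2 from rfl, pow_mul, pow_two n, pow_two]
        rcases h2 with e | e <;> rw [e]
        exacts [one_mul 1, h.iz.1]⟩) le_top le_top
      have h4 := hN _ (h3 n (mem_zpowers n)) (‹N.Normal›.conj_mem' n hn g)
      rw [← h.cfix h4 (isConj_iff.2 ⟨g, by group⟩ : IsConj _ n)] at h4
      exact it.2 ((h.pi.2 (by simpa using h4)).symm.trans (map_one _)))).not_two_dvd_nat
  rw [h.Oz] at h1
  simpa using h.pi.1 ((map_one _).trans (mem_bot.1 (h1 ⟨u, hu, rfl⟩)).symm)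

variable (h' : Sd S B A z x β c' j' c)
include h'

theorem ic (ha : a ∈ A) (e : a * a = z) (hs : s ∈ (S : Subgroup G)) (hc : IsConj a s) : s ∈ A :=
  (h.root s hs (h.csq hc e)).resolve_right fun hb => h.nf (((h.allc ha e).trans hc).trans (h'.allc hb (h.csq hc e)).symm)

theorem sc : ∀ a ∈ A, ∀ s ∈ (S : Subgroup G), IsConj a s → s ∈ A := fun a ha s hs hc => by
  obtain ⟨n, h1, h2⟩ := h.pw
  obtain ⟨a', ha', b, hb, rfl⟩ | h2 | h2 := h2 s hs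
  rotate_left
  · obtain ⟨g, rfl⟩ := isConj_iff.1 hc
    rwa [h.cfix (h.uniq ha (conj_eq_one_iff.1 (conj_mul.symm.trans h2))) hc]
  · rw [h.cfix (h1 a ha) (hc.pow n)] at h2
    exact absurd (h1 a ha) (not_or.2 h2)
  by_cases h3 : b * b = 1
  · rcases h'.uniq hb h3 with rfl | rfl
    exacts [by rwa [mul_one], mul_mem ha' h.zA]
  exfalso
  obtain ⟨n, ib⟩ := exists_invo_pow_of_two_elt (two_elt (h'.le (mul_mem hb hb))) h3
  have eb := (h'.uniq (pow_mem (mul_mem hb hb) n) ib.1).resolve_left ib.2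
  rw [(Commute.refl b).mul_pow] at eb
  obtain ⟨g, e⟩ := isConj_iff.1 (hc.pow n)
  rw [Commute.mul_pow (h.comm a' ha' b hb)] at e
  have hu := pow_mem ha n
  replace ha := pow_mem ha' n
  replace hb := pow_mem hb n
  generalize a ^ n = u, a' ^ n = a, b ^ n = b at *
  have k : a * b ∉ A := fun e => h.nz1 eb (h.disj ((mul_mem_cancel_left ha).1 e) hb)
  have h4 : u * u ≠ 1 := fun h4 => k (by rwa [← e, h.cfix (h.uniq hu h4) (cjc g u)])
  have h5 : u * u ≠ z := fun h5 => k (h.ic h' hu h5 (mul_mem (h.le ha) (h'.le hb)) (e ▸ cjc g u))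
  have h6 : u ∈ zpowers α := by_contra fun h6 => h5 (h.out u hu h6).1
  have h7 : a ∈ zpowers α := by_contra fun h7 => h4 (conj_eq_one_iff.1 (by
    rw [← conj_mul, e, mul_assoc, ← mul_assoc b, ← h.comm a ha b hb, mul_assoc, eb, ← mul_assoc, (h.out a ha h7).1, h.iz.1]))
  have h8 : g⁻¹ * j * g * u * (g⁻¹ * j * g)⁻¹ = u⁻¹ * z := by
    have : a⁻¹ * b = (a * b)⁻¹ * z := by
      rw [mul_inv_rev, ← h.comm _ (inv_mem ha) _ (inv_mem hb), h.invz eb, ← mul_assoc, h.iz.mul_mul']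
    rw [show g⁻¹ * j * g * u * (g⁻¹ * j * g)⁻¹ = g⁻¹ * (j * (g * u * g⁻¹) * j⁻¹) * g by group, e, ← conj_mul, h.inv h.hj h.nj h7,
      h.comm j h.hj b hb, mul_inv_cancel_right, this, ← e, mul_assoc, mul_assoc, ← h.zc]
    group
  obtain ⟨m, iu⟩ := exists_invo_pow_of_two_elt (two_elt (h.le hu)) fun e => h4 (by rw [e, one_mul])
  have h9 : z ∈ zpowers u := (h.uniq (pow_mem hu m) iu.1).resolve_left iu.2 ▸ pow_mem (mem_zpowers u) m
  obtain ⟨k, k1, k2⟩ := H9.exists_conj_mem_sylow S (H9.isPGroup_zpowers (a := g⁻¹ * j * g) ((two_elt (h.le h.hj)).imp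
    fun n hn => by rw [show g⁻¹ * j * g = g⁻¹ * j * g⁻¹⁻¹ by group, conj_pow, hn]; group))
    (H := 𝐍(zpowers u)) (zpowers_le.2 (nz (h8 ▸ mul_mem (inv_mem (mem_zpowers u)) h9))) fun s hs => nz (h.nu hs h6)
  have k3 := h.ic h' h.hj h.jj (k2 _ (mem_zpowers _)) (isConj_iff.2 ⟨k⁻¹ * g⁻¹, by group⟩)
  have k4 := zpowers_le.2 h6 ((mem_normalizer_iff.1 (inv_mem k1) u).1 (mem_zpowers u))
  have k5 : k⁻¹ * (g⁻¹ * j * g) * k * (k⁻¹ * u * k⁻¹⁻¹) * (k⁻¹ * (g⁻¹ * j * g) * k)⁻¹ = (k⁻¹ * u * k⁻¹⁻¹)⁻¹ * z := by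
    rw [← h.cz k⁻¹, conj_inv, conj_mul, ← h8]; group
  by_cases k6 : k⁻¹ * (g⁻¹ * j * g) * k ∈ zpowers α
  · rw [ZG.zp_comm k6 k4, mul_inv_cancel_right, eq_inv_mul_iff_mul_eq] at k5
    exact h5 (h.csq (cjc k⁻¹ u).symm k5)
  · rw [h.inv k3 k6 k4, left_eq_mul] at k5
    exact h.iz.2 k5

theorem pf (hu : IsConj c u) (hv : IsConj c' v) : u * v = v * u := by
  have := h.zn
  have hπ := QuotientGroup.mk'_surjective (zpowers z)
  have k : ∀ {A : Subgroup G}, z ∈ A → (∀ a ∈ A, ∀ s ∈ (S : Subgroup G), IsConj a s → s ∈ A) →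
      ∀ a ∈ A.map (QuotientGroup.mk' (zpowers z)), ∀ s ∈ (S.mapSurjective hπ : Subgroup _), IsConj a s →
        s ∈ A.map (QuotientGroup.mk' (zpowers z)) := by
    rintro A hz hA _ ⟨a, ha, rfl⟩ _ ⟨s, hs, rfl⟩ hc
    obtain ⟨g, e⟩ := isConj_iff.1 hc
    obtain ⟨g, rfl⟩ := hπ g
    rw [← map_inv, ← map_mul, ← map_mul, h.pi] at e
    refine mem_map_of_mem _ ?_
    rcases e with rfl | rfl
    exacts [hA a ha _ hs (cjc g a), hA _ (mul_mem ha hz) _ hs (isConj_iff.2 ⟨g, by rw [← conj_mul, h.cz]⟩)]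
  have k2 : ∀ u, u * u = z → Invo (QuotientGroup.mk' (zpowers z) u) := fun u e =>
    ⟨by rw [← map_mul, e]; exact (QuotientGroup.eq_one_iff _).2 (mem_zpowers z),
      fun e' => h.nz1 e (h.iz.mem_zpowers_iff.1 ((QuotientGroup.eq_one_iff _).1 e'))⟩
  have e1 := h.csq hu h.cc
  have e2 := h.csq hv h'.cc
  have h1 := (pf_of (S := S.mapSurjective hπ) (map_mono h.le) (map_mono h'.le) (by
    rintro _ ⟨a, ha, rfl⟩ _ ⟨b, hb, rfl⟩
    rw [← map_mul, h.comm a ha b hb, map_mul]) (by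
    rintro _ ⟨a, ha, rfl⟩ ⟨b, hb, e⟩
    refine (QuotientGroup.eq_one_iff _).2 (h.iz.mem_zpowers_iff.2 (h.disj ha ?_))
    rcases h.pi.1 e with rfl | rfl
    exacts [hb, mul_mem hb h'.zA]) (k h.zA (h.sc h')) (k h'.zA (h'.sc h))).main _
    ⟨_, mem_map_of_mem _ h.cA, MonoidHom.map_isConj _ hu⟩ _ ⟨_, mem_map_of_mem _ h'.cA, MonoidHom.map_isConj _ hv⟩ (k2 u e1) (k2 v e2)
  rw [h.Oz, mem_bot, commutatorElement_eq_one_iff_mul_comm, ← map_mul, ← map_mul, eq_comm, h.pi] at h1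
  refine h1.elim id fun h1 => ?_
  have p : ∀ u, u * u = z → IsPGroup 2 (zpowers u) := fun u e => H9.isPGroup_zpowers ⟨2, by
    rw [show 2 ^ 2 = 2 * 2 from rfl, pow_mul, pow_two u, pow_two, e, h.iz.1]⟩
  obtain ⟨g, -, h2⟩ := H9.exists_conj_mem_sylow S ((p v e2).to_sup_of_normal_left' (p u e1) (zpowers_le.2 (nz (by
    rw [h1, mul_assoc v, h.zc, ← mul_assoc, mul_inv_cancel_right, ← e2]
    exact mul_mem (mem_zpowers v) (mul_mem (mem_zpowers v) (mem_zpowers v)))))) le_top le_top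
  simpa [mul_assoc] using cj_comm g <| h.comm _ (h.ic h' h.cA h.cc (h2 u (mem_sup_right (mem_zpowers u)))
    (hu.trans (isConj_iff.2 ⟨g⁻¹, by group⟩))) _ (h'.ic h h'.cA h'.cc (h2 v (mem_sup_left (mem_zpowers v)))
    (hv.trans (isConj_iff.2 ⟨g⁻¹, by group⟩)))

theorem leC : A ≤ CC c' := h.gen fun a _ ha => mem_CC.2 fun v hv => (h.pf h' ha hv).symm

omit h' in
theorem comA (hg : g ∈ CC c) (ha : a ∈ A) : a * g = g * a :=
  mem_cent1.1 (h.gen (K := 𝐂[g]) (fun a _ ha => mem_cent1.2 (mem_CC.1 hg a ha)) ha)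

omit h' in
theorem SC (hs : s ∈ (S : Subgroup G)) (hg : s ∈ CC c) : s ∈ B := h.cent s hs fun a ha => h.comA hg ha

theorem inf (h1 : u ∈ CC c) (h2 : u ∈ CC c') : u = 1 ∨ u = z :=
  h.oz (N := CC c ⊓ CC c') (fun s hs hn => h.disj (h'.SC hs hn.2) (h.SC hs hn.1)) ⟨h1, h2⟩

theorem two (h1 : u ∈ CC c') (h2 : ∃ k, u ^ 2 ^ k = 1) : ∃ a ∈ A, IsConj a u := by
  obtain ⟨g, -, h3⟩ := H9.exists_conj_mem_sylow S (H9.isPGroup_zpowers h2) le_top le_top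
  exact ⟨_, h'.SC (h3 u (mem_zpowers u)) ((CC_normal c').conj_mem' u h1 g), isConj_iff.2 ⟨g, by group⟩⟩

omit h' in
theorem sqc (e : ⁅u, v⁆ = 1 ∨ ⁅u, v⁆ = z) : u ^ 2 ^ 1 ∈ 𝐂[v] := by
  rw [mem_cent1, pow_one, pow_two, ← mul_inv_eq_iff_eq_mul, show u * u * v * (u * u)⁻¹ = u * ⁅u, v⁆ * u⁻¹ * ⁅u, v⁆ * v by
    simp [commutatorElement_def, mul_assoc]]
  rcases e with e | e <;> rw [e]
  exacts [by simp, by rw [h.cz, h.iz.1, one_mul]]

theorem ccomm (h1 : u ∈ CC c') (h2 : v ∈ CC c) : u * v = v * u := by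
  obtain ⟨o, r, ho, -, e⟩ := ZG.two_part u
  obtain ⟨a, ha, h3⟩ := h.two h' (pow_mem h1 o) ⟨r, by rw [← e, pow_orderOf_eq_one]⟩
  obtain ⟨g, h3⟩ := isConj_iff.1 h3
  refine mem_cent1.1 (mem_of_pow ho 1 (mem_cent1.2 ?_) (h.sqc (h.inf h' ?_ ?_)))
  · simpa [← h3, mul_assoc] using cj_comm g (h.comA ((CC_normal c).conj_mem' v h2 g) ha)
  · exact mul_mem ((CC_normal c).conj_mem v h2 u) (inv_mem h2)
  · rw [commutatorElement_def, mul_assoc, mul_assoc, ← mul_assoc v]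
    exact mul_mem h1 ((CC_normal c').conj_mem _ (inv_mem h1) v)

end Sd

end Cfsg.Agent.H3.GT
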